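import Cfsg.Agent.PF.I07

/-!
# Bridge between the coherence predicates of the prelude and `IsoOn`, `Coh`, `Subcoh`.
-/

set_option autoImplicit false
set_option linter.unusedSectionVars false

open scoped ComplexConjugate

open Cfsg CA.FG CA.BG

namespace CA.Chr

section
variable {L G : Type*} [Group L] [Finite L] [Group G] [Finite G]

theorem exists_lin_of_iso {E : Set (L → ℂ)} {τ : (L → ℂ) → G → ℂ}
    (hE : ∀ α ∈ E, ∀ β ∈ E, ⟪τ α, τ β⟫ = ⟪α, β⟫) :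
    ∃ ν : (L → ℂ) →ₗ[ℂ] (G → ℂ), ∀ α ∈ E, ν α = τ α := by
  obtain ⟨b, hb, hs, li⟩ := exists_linearIndependent ℂ E
  replace li : LinearIndepOn ℂ id b := li
  let B := Module.Basis.extend li
  let ν : (L → ℂ) →ₗ[ℂ] (G → ℂ) := B.constr ℂ fun x => τ x
  have h1 : ∀ β ∈ b, ν β = τ β := fun β hβ => by
    have := B.constr_basis ℂ (fun x => τ x) ⟨β, LinearIndepOn.subset_extend li (Set.subset_univ _) hβ⟩
    rwa [Module.Basis.extend_apply_self] at this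
  have h2 : ∀ (X : G → ℂ) (x : L → ℂ), (∀ β ∈ b, ⟪τ β, X⟫ = ⟪β, x⟫) →
      ∀ α ∈ E, ⟪ν α, X⟫ = ⟪α, x⟫ := fun X x h α hα =>
    LinearMap.eqOn_span (f := dotLeft X ∘ₗ ν) (g := dotLeft x) (s := b)
      (fun β hβ => (congrArg (⟪·, X⟫) (h1 β hβ)).trans (h β hβ)) (hs ▸ Submodule.subset_span hα)
  refine ⟨ν, fun α hα => sub_eq_zero.1 (dot_self_eq_zero.1 ?_)⟩
  have e1 := h2 _ _ (fun β hβ => hE β (hb hβ) α hα) α hα
  have e2 : ⟪ν α, ν α⟫ = ⟪α, α⟫ := h2 _ _ (fun β hβ => by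
    rw [← conj_dot, h2 _ _ (fun γ hγ => hE γ (hb hγ) β (hb hβ)) α hα, conj_dot]) α hα
  rw [dot_sub_left, dot_sub_right, dot_sub_right, e2, e1, ← conj_dot (ν α), e1, conj_dot, hE α hα α hα]
  ring

theorem mem_zspanOn {S : Set (L → ℂ)} {α : L → ℂ} :
    α ∈ zspanOn S {1}ᶜ ↔ α ∈ Submodule.span ℤ S ∧ α 1 = 0 := by
  simp [zspanOn, zspan]

theorem zspanOn_mono {S T : Set (L → ℂ)} (h : S ⊆ T) : zspanOn S {1}ᶜ ⊆ zspanOn T {1}ᶜ :=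
  fun _ hα => ⟨Submodule.span_mono h hα.1, hα.2⟩

theorem mem_span_zspanOn {S : Finset (L → ℂ)} (hS : ∀ φ ∈ S, ∃ n : ℤ, φ 1 = n) {α : L → ℂ}
    (hα : α ∈ CS S) (h1 : α 1 = 0) : α ∈ Submodule.span ℂ (zspanOn (S : Set (L → ℂ)) {1}ᶜ) := by
  by_cases h : ∃ ψ ∈ S, ψ 1 ≠ 0
  · obtain ⟨ψ, hψ, h0⟩ := h
    refine (Submodule.Quotient.mk_eq_zero _).1 (lin_eq_of_base (a := Submodule.mkQ _) (b := 0) h0
      (fun φ hφ => (Submodule.Quotient.mk_eq_zero _).2 ?_) hα h1)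
    obtain ⟨m, hm⟩ := hS φ hφ
    obtain ⟨n, hn⟩ := hS ψ hψ
    have : φ - (φ 1 / ψ 1) • ψ = (ψ 1)⁻¹ • ((n : ℂ) • φ - (m : ℂ) • ψ) := by
      rw [← hm, ← hn]; ext x; simp; field_simp
    rw [this]
    exact Submodule.smul_mem _ _ (Submodule.subset_span (mem_zspanOn.2 ⟨sub_mem
      (ZS_intCast_smul n (mem_ZS hφ)) (ZS_intCast_smul m (mem_ZS hψ)), by simp [← hm, ← hn, mul_comm]⟩))
  · push Not at h
    exact Submodule.span_mono (fun φ hφ => mem_zspanOn.2 ⟨mem_ZS hφ, h φ hφ⟩) hα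

end

variable {L G : Type*} [Group L] [Fintype L] [Group G] [Fintype G]

theorem exists_lin_of_isometry {E : Set (L → ℂ)} {τ : (L → ℂ) → G → ℂ} (h : IsLinearIsometryOn E τ) :
    ∃ ν : (L → ℂ) →ₗ[ℂ] (G → ℂ), ∀ α ∈ E, ν α = τ α :=
  exists_lin_of_iso fun α hα β hβ => by simpa only [classInner_eq] using h.2.2.1 α hα β hβ

theorem isoOn_of_isometry {S : Finset (L → ℂ)} (hS : ∀ φ ∈ S, ∃ n : ℤ, φ 1 = n) {τ : (L → ℂ) → G → ℂ}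
    (h : IsLinearIsometryOn (zspanOn (S : Set (L → ℂ)) {1}ᶜ) τ)
    (h1 : ∀ α ∈ zspanOn (S : Set (L → ℂ)) {1}ᶜ, τ α 1 = 0) {ν : (L → ℂ) →ₗ[ℂ] (G → ℂ)}
    (hν : ∀ α ∈ zspanOn (S : Set (L → ℂ)) {1}ᶜ, ν α = τ α) : IsoOn S ν := by
  refine ⟨fun α hα β hβ α1 β1 => ?_, fun α hα α1 => ?_, fun α hα α1 => ?_⟩
  · refine LinearMap.eqOn_span (f := dotLeft (ν β) ∘ₗ ν) (g := dotLeft β) (fun γ hγ => ?_)
      (mem_span_zspanOn hS hα α1)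
    change ⟪ν γ, ν β⟫ = ⟪γ, β⟫
    rw [← conj_dot, ← conj_dot β]
    refine congrArg _ (LinearMap.eqOn_span (f := dotLeft (ν γ) ∘ₗ ν) (g := dotLeft γ) (fun δ hδ => ?_)
      (mem_span_zspanOn hS hβ β1))
    change ⟪ν δ, ν γ⟫ = ⟪δ, γ⟫
    rw [hν _ hδ, hν _ hγ, ← classInner_eq, h.2.2.1 _ hδ _ hγ, classInner_eq]
  · rw [hν α (mem_zspanOn.2 ⟨hα, α1⟩)]
    exact h.2.2.2 α (mem_zspanOn.2 ⟨hα, α1⟩)
  · exact LinearMap.eqOn_span (f := LinearMap.proj 1 ∘ₗ ν) (g := 0)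
      (fun γ hγ => (congrFun (hν γ hγ) 1).trans (h1 γ hγ)) (mem_span_zspanOn hS hα α1)

theorem CohWith.isometry {S : Finset (L → ℂ)} {τ ν : (L → ℂ) →ₗ[ℂ] (G → ℂ)} (h : CohWith S τ ν) :
    IsLinearIsometryOn (zspan (S : Set (L → ℂ))) ν :=
  ⟨fun _ _ _ _ => map_add _ _ _, fun _ _ _ => map_zsmul _ _ _, fun α hα β hβ => by
    simpa only [classInner_eq] using h.iso' (CS_of_ZS hα) (CS_of_ZS hβ), fun _ hα => h.zirr' hα⟩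

theorem cohWith_of_isometry {S : Finset (L → ℂ)} (hS : ∀ φ ∈ S, ∃ n : ℤ, φ 1 = n)
    {τ₁ : (L → ℂ) → G → ℂ} (h : IsLinearIsometryOn (zspan (S : Set (L → ℂ))) τ₁)
    {τ : (L → ℂ) →ₗ[ℂ] (G → ℂ)} (ha : ∀ α ∈ zspanOn (S : Set (L → ℂ)) {1}ᶜ, τ₁ α = τ α) :
    ∃ ν, CohWith S τ ν ∧ ∀ α ∈ ZS S, ν α = τ₁ α := by
  obtain ⟨ν, hν⟩ := exists_lin_of_isometry h
  refine ⟨ν, ⟨fun φ hφ => ?_, fun φ hφ ψ hψ => ?_, fun α hα α1 => LinearMap.eqOn_span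
    (fun γ hγ => (hν γ hγ.1).trans (ha γ hγ)) (mem_span_zspanOn hS hα α1)⟩, hν⟩
  · rw [hν φ (mem_ZS hφ)]; exact h.2.2.2 φ (mem_ZS hφ)
  · rw [hν φ (mem_ZS hφ), hν ψ (mem_ZS hψ), ← classInner_eq, h.2.2.1 φ (mem_ZS hφ) ψ (mem_ZS hψ),
      classInner_eq]

theorem isCoherent_iff {S : Finset (L → ℂ)} (hS : ∀ φ ∈ S, ∃ n : ℤ, φ 1 = n) {τ : (L → ℂ) → G → ℂ}
    {τ' : (L → ℂ) →ₗ[ℂ] (G → ℂ)} (h : ∀ α ∈ zspanOn (S : Set (L → ℂ)) {1}ᶜ, τ' α = τ α) :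
    IsCoherent (S : Set (L → ℂ)) {1}ᶜ τ ↔
      (∃ α ∈ zspanOn (S : Set (L → ℂ)) {1}ᶜ, α ≠ 0) ∧ Coh S τ' := by
  refine and_congr_right fun _ => ⟨fun ⟨τ₁, h1, h2⟩ => ?_, fun ⟨ν, hν⟩ => ⟨ν, hν.isometry, fun α hα =>
    (hν.agree α (CS_of_ZS hα.1) (mem_zspanOn.1 hα).2).trans (h α hα)⟩⟩
  obtain ⟨ν, hν, -⟩ := cohWith_of_isometry hS h1 fun α hα => (h2 α hα).trans (h α hα).symm
  exact ⟨ν, hν⟩

theorem exists_zspanOn_ne_zero {S : Set (L → ℂ)} {φ ψ : L → ℂ} (hφ : φ ∈ S) (hψ : ψ ∈ S)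
    (i : IsCharacter L φ) (j : IsCharacter L ψ) (h0 : φ ≠ 0) (h1 : ψ ≠ 0) (o : ⟪φ, ψ⟫ = 0) :
    ∃ α ∈ zspanOn S {1}ᶜ, α ≠ 0 := by
  refine ⟨deg ψ • φ - deg φ • ψ, mem_zspanOn.2 ⟨sub_mem (nsmul_mem (Submodule.subset_span hφ) _)
    (nsmul_mem (Submodule.subset_span hψ) _), by simp [IsChar.coe_deg i, IsChar.coe_deg j, mul_comm]⟩,
    fun e => ?_⟩
  have := congrArg (⟪·, φ⟫) e
  simp only [dot_sub_left, dot_nsmul_left, dot_comm_zero o, IsChar.coe_deg j] at this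
  have n : ψ 1 ≠ 0 := fun f => h1 (IsChar.eq_zero_of_deg j f)
  simp [n, dot_self_eq_zero, h0] at this

theorem deg_int_of_char {S : Finset (L → ℂ)} (h : ∀ φ ∈ S, IsCharacter L φ) :
    ∀ φ ∈ S, ∃ n : ℤ, φ 1 = n := fun φ hφ => ZIrr.deg_int (IsChar.mem_ZIrr (h φ hφ))

theorem IsCoherenceSystem.finite {S : Set (L → ℂ)} {τ : (L → ℂ) → G → ℂ}
    {R : (L → ℂ) → Finset (G → ℂ)} (h : IsCoherenceSystem S τ R) : S.Finite :=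
  finite_of_orth S (fun e => h.conj_ne 0 e (by ext; simp)) fun φ hφ ψ hψ e => by
    rw [← classInner_eq, h.orthogonal φ hφ ψ hψ e]

theorem subcoh_of_system {S : Finset (L → ℂ)} {τ : (L → ℂ) → G → ℂ} {R : (L → ℂ) → Finset (G → ℂ)}
    (h : IsCoherenceSystem (S : Set (L → ℂ)) τ R) :
    ∃ τ' : (L → ℂ) →ₗ[ℂ] (G → ℂ), Subcoh S τ' R ∧ ∀ α ∈ zspanOn (S : Set (L → ℂ)) {1}ᶜ, τ' α = τ α := by
  obtain ⟨ν, hν⟩ := exists_lin_of_isometry h.isometry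
  have o : ∀ χ ∈ S, ∀ φ ∈ S, χ ≠ φ → ⟪χ, φ⟫ = 0 := fun χ hχ φ hφ e => by
    rw [← classInner_eq, h.orthogonal χ hχ φ hφ e]
  refine ⟨ν, ⟨isoOn_of_isometry (deg_int_of_char h.isCharacter) h.isometry h.map_one hν, h.isCharacter,
    h.conj_mem, h.conj_ne, o, fun χ hχ => ⟨fun α hα => ZIrr.dirr_of_dot_self (h.virtual χ hχ α hα) ?_,
      fun α hα β hβ e => ?_⟩, fun χ hχ => ?_, fun χ hχ φ hφ e1 e2 α hα β hβ => ?_⟩, hν⟩
  · rw [← classInner_eq, h.orthonormal χ hχ α hα α hα, if_pos rfl]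
  · rw [← classInner_eq, h.orthonormal χ hχ α hα β hβ, if_neg e]
  · rw [hν _ (mem_zspanOn.2 ⟨sub_mem (mem_ZS hχ) (mem_ZS (h.conj_mem χ hχ)),
      sub_eq_zero.2 (IsChar.conj_deg (h.isCharacter χ hχ)).symm⟩), h.sum_eq χ hχ]
  · rw [← classInner_eq]
    exact h.disjoint χ hχ φ hφ (by rw [classInner_eq, o φ hφ χ hχ e1])
      (by rw [classInner_eq, o φ hφ _ (h.conj_mem χ hχ) e2]) α hα β hβ

theorem Subcoh.isCoherent {S T : Finset (L → ℂ)} {τ : (L → ℂ) → G → ℂ} {τ' : (L → ℂ) →ₗ[ℂ] (G → ℂ)}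
    {R : (L → ℂ) → Finset (G → ℂ)} (h : Subcoh S τ' R)
    (ha : ∀ α ∈ zspanOn (S : Set (L → ℂ)) {1}ᶜ, τ' α = τ α) (hT : T ⊆ S)
    (hc : ∀ χ ∈ T, conjFun χ ∈ T) : IsCoherent (T : Set (L → ℂ)) {1}ᶜ τ ↔ T.Nonempty ∧ Coh T τ' := by
  rw [isCoherent_iff (deg_int_of_char fun φ hφ => h.char φ (hT hφ))
    fun α hα => ha α (zspanOn_mono (Finset.coe_subset.2 hT) hα)]
  refine and_congr_left fun _ => ⟨fun ⟨α, hα, h0⟩ => ?_, fun ⟨χ, hχ⟩ => ⟨_, mem_zspanOn.2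
    ⟨sub_mem (mem_ZS hχ) (mem_ZS (hc χ hχ)), h.sub_conj_deg (hT hχ)⟩,
    sub_ne_zero.2 (h.conj_ne χ (hT hχ)).symm⟩⟩
  by_contra e
  rw [Finset.not_nonempty_iff_eq_empty.1 e, mem_zspanOn] at hα
  exact h0 (by simpa using hα.1)

theorem coe_seqIndD (K A : Subgroup L) [K.Normal] :
    (seqIndD K.subtype K A : Set (L → ℂ)) = inducedIrrAbove K A := by
  ext φ
  rw [Finset.mem_coe, mem_seqIndD]
  refine exists_congr fun θ => and_congr_right fun hθ => and_congr (not_le_cfker_iff_ne_one hθ)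
    (and_congr ⟨fun h a ha => cfker_apply (h ha), fun h a ha => (IsIrr.mem_cfker hθ).2 (h a ha)⟩
      (by rw [indFun_eq]))

section Transport
omit [Fintype L] [Fintype G]
variable [Finite L] [Finite G] {L' : Type*} [Group L'] [Finite L'] (e : L ≃* L')
  {S : Finset (L → ℂ)} {S' : Finset (L' → ℂ)} (hS : ∀ φ ∈ S', φ ∘ e ∈ S)
  {τ : (L → ℂ) →ₗ[ℂ] (G → ℂ)}
include hS

theorem comp_mem_CS {α : L' → ℂ} (h : α ∈ CS S') : α ∘ e ∈ CS S :=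
  (Submodule.span_le (p := (CS S).comap (LinearMap.funLeft ℂ ℂ e))).2 (fun φ hφ => mem_CS (hS φ hφ)) h

theorem comp_mem_ZS {α : L' → ℂ} (h : α ∈ ZS S') : α ∘ e ∈ ZS S :=
  (Submodule.span_le (p := (ZS S).comap (LinearMap.funLeft ℤ ℂ e))).2 (fun φ hφ => mem_ZS (hS φ hφ)) h

theorem Coh.comp (h : Coh S τ) : Coh S' (τ ∘ₗ LinearMap.funLeft ℂ ℂ e) :=
  let ⟨ν, hν⟩ := h
  ⟨ν ∘ₗ LinearMap.funLeft ℂ ℂ e, fun φ hφ => hν.zirr _ (hS φ hφ), fun φ hφ ψ hψ =>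
    (hν.iso _ (hS φ hφ) _ (hS ψ hψ)).trans (dot_comp_equiv e.toEquiv φ ψ),
    fun α hα α1 => hν.agree _ (comp_mem_CS e hS hα) (by simpa [LinearMap.funLeft_apply] using α1)⟩

theorem IsoOn.comp (h : IsoOn S τ) : IsoOn S' (τ ∘ₗ LinearMap.funLeft ℂ ℂ e) :=
  ⟨fun α hα β hβ α1 β1 => (h.iso _ (comp_mem_CS e hS hα) _ (comp_mem_CS e hS hβ) (by simpa using α1)
    (by simpa using β1)).trans (dot_comp_equiv e.toEquiv α β),
    fun α hα α1 => h.zirr _ (comp_mem_ZS e hS hα) (by simpa using α1),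
    fun α hα α1 => h.one _ (comp_mem_CS e hS hα) (by simpa using α1)⟩

theorem Subcoh.comp {R : (L → ℂ) → Finset (G → ℂ)} (h : Subcoh S τ R)
    (hc : ∀ φ ∈ S', conjFun φ ∈ S') :
    Subcoh S' (τ ∘ₗ LinearMap.funLeft ℂ ℂ e) fun φ => R (φ ∘ e) := by
  have inj : ∀ {φ ψ : L' → ℂ}, φ ≠ ψ → φ ∘ e ≠ ψ ∘ e := fun hne f =>
    hne (e.surjective.injective_comp_right f)
  refine ⟨h.toIsoOn.comp e hS, fun χ hχ => ?_, hc, fun χ hχ f => h.conj_ne _ (hS χ hχ) ?_,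
    fun χ hχ φ hφ hne => (dot_comp_equiv e.toEquiv χ φ).symm.trans (h.orth _ (hS χ hχ) _ (hS φ hφ)
      (inj hne)), fun χ hχ => h.ons _ (hS χ hχ), fun χ hχ => h.sum_eq _ (hS χ hχ),
    fun χ hχ φ hφ e1 e2 => h.disj _ (hS χ hχ) _ (hS φ hφ) (inj e1) (inj e2)⟩
  · have := IsChar.comp (h.char _ (hS χ hχ)) e.symm.toMonoidHom
    convert this using 1
    ext; simp
  · rw [conjFun_comp, f]

end Transport

theorem comp_mem_seqIndD {K K' L L' : Type*} [Group K] [Finite K] [Group K'] [Finite K'] [Group L]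
    [Finite L] [Group L'] [Finite L'] {f : K →* L} {f' : K' →* L'} (e : L ≃* L') (d : K ≃* K')
    (h : ∀ k, f' (d k) = e (f k)) {H M : Subgroup L} {H' M' : Subgroup L'} (hH : ∀ x, x ∈ H ↔ e x ∈ H')
    (hM : ∀ x, x ∈ M ↔ e x ∈ M') : ∀ φ ∈ seqIndD f' H' M', φ ∘ e ∈ seqIndD f H M := by
  intro φ hφ
  simp only [seqIndD, seqInd, Finset.mem_image, Finset.mem_filter, mem_irr] at hφ ⊢
  obtain ⟨θ, ⟨hθ, h1, h2⟩, rfl⟩ := hφ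
  refine ⟨θ ∘ d, ⟨IsIrr.comp_equiv hθ d, fun c => h1 fun k hk x => ?_, fun k hk x => ?_⟩, Eq.symm ?_⟩
  · obtain ⟨k, rfl⟩ := d.surjective k
    obtain ⟨x, rfl⟩ := d.surjective x
    simpa using c (show k ∈ H.comap f from (hH _).2 (h k ▸ hk)) x
  · simpa using h2 (show d k ∈ M'.comap f' from show f' (d k) ∈ M' from h k ▸ (hM _).1 hk) (d x)
  · rw [← e.symm_symm, ← ind_equiv _ (ind_mem_CF _ _), ind_comp, ← ind_comp_equiv _ d]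
    congr 2
    ext k
    simp [h]

theorem seqIndD_subgroupOf {G : Type*} [Group G] [Finite G] {K L : Subgroup G} (h : K ≤ L)
    (H M : Subgroup L) : seqIndD (K.subgroupOf L).subtype H M = seqIndD (Subgroup.inclusion h) H M :=
  Finset.Subset.antisymm (comp_mem_seqIndD (.refl L) (Subgroup.subgroupOfEquivOfLe h).symm
    (fun _ => rfl) (fun _ => Iff.rfl) fun _ => Iff.rfl) (comp_mem_seqIndD (.refl L)
      (Subgroup.subgroupOfEquivOfLe h) (fun _ => rfl) (fun _ => Iff.rfl) fun _ => Iff.rfl)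

theorem normalIn_top' {L : Type*} [Group L] (K : Subgroup L) [K.Normal] : K ⊲ ⊤ :=
  ⟨le_top, (Subgroup.normalizer_eq_top K).ge⟩

theorem top_SD₁ {L : Type*} [Group L] [Finite L] (K H M : Subgroup L) :
    ∀ φ ∈ SD (le_top : K ≤ ⊤) H M, φ ∘ Subgroup.topEquiv.symm ∈ seqIndD K.subtype H M :=
  comp_mem_seqIndD _ (.refl K) (fun _ => rfl) (fun _ => Iff.rfl) fun _ => Iff.rfl

theorem top_SD₂ {L : Type*} [Group L] [Finite L] (K H M : Subgroup L) :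
    ∀ φ ∈ seqIndD K.subtype H M, φ ∘ Subgroup.topEquiv ∈ SD (le_top : K ≤ ⊤) H M :=
  comp_mem_seqIndD _ (.refl K) (fun _ => rfl) (fun _ => Iff.rfl) fun _ => Iff.rfl

theorem top_coh {L G : Type*} [Group L] [Finite L] [Group G] [Finite G] (K H M : Subgroup L)
    (τ : (L → ℂ) →ₗ[ℂ] (G → ℂ)) : Coh (SD (le_top : K ≤ ⊤) H M)
      (τ ∘ₗ LinearMap.funLeft ℂ ℂ Subgroup.topEquiv.symm) ↔ Coh (seqIndD K.subtype H M) τ :=
  ⟨fun h => h.comp _ (top_SD₂ K H M), fun h => h.comp _ (top_SD₁ K H M)⟩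

theorem top_system (K : Subgroup L) [K.Normal] {τ : (L → ℂ) → G → ℂ} {R : (L → ℂ) → Finset (G → ℂ)}
    (hS : IsCoherenceSystem (inducedIrrAbove K ⊥) τ R) :
    ∃ τ' R', Subcoh (G := G) (SD (normalIn_top' K).1 K ⊥) τ' R' ∧ ∀ V N : Subgroup L, V ≤ K →
      (IsCoherent (seqIndD K.subtype V N : Set (L → ℂ)) {1}ᶜ τ ↔
        (SD (normalIn_top' K).1 V N).Nonempty ∧ Coh (SD (normalIn_top' K).1 V N) τ') := by
  rw [← coe_seqIndD] at hS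
  obtain ⟨τ', h, ha⟩ := subcoh_of_system hS
  refine ⟨_, _, h.comp _ (top_SD₁ K K ⊥) (SD_conj (normalIn_top' K)), fun V N hV => ?_⟩
  rw [h.isCoherent ha (seqIndD_mono hV bot_le) seqIndD_conj, top_coh]
  exact and_congr_left fun _ => ⟨fun ⟨φ, hφ⟩ => ⟨_, top_SD₂ K V N φ hφ⟩,
    fun ⟨φ, hφ⟩ => ⟨_, top_SD₁ K V N φ hφ⟩⟩

theorem normedTI_of_TI {G : Type*} [Group G] {H : Subgroup G} (h1 : H ≠ ⊥) (h : IsTISubset (H : Set G)) :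
    NormedTI (sharp H) ⊤ 𝒩(H) := by
  obtain ⟨x, hx, hx1⟩ := exists_mem_ne_one h1
  refine ⟨⟨x, hx, hx1⟩, le_top, fun a ha g _ => ⟨fun f => by_contra fun n => ha.2 (h g n a ha.1 f.1),
    fun f => ⟨(Subgroup.mem_normalizer_iff.1 f a).1 ha.1, by simpa using ha.2⟩⟩⟩

end CA.Chr
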