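import Cfsg.Agent.PF.Brg

/-!
# Feit's coherence theorems for sets of irreducible characters (no oddness assumption).
-/

set_option autoImplicit false
set_option linter.unusedSectionVars false

open scoped ComplexConjugate

open Cfsg CA.FG CA.BG

namespace CA.Chr

section General
variable {L G : Type*} [Group L] [Finite L] [Group G] [Finite G] {S : Finset (L → ℂ)}
  {τ ν : (L → ℂ) →ₗ[ℂ] (G → ℂ)}

theorem CohWith.apply_one (h : IsoOn S τ) {T : Finset (L → ℂ)} (hT : T ⊆ S) (hν : CohWith T τ ν)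
    {φ ψ : L → ℂ} (hφ : φ ∈ T) (hψ : ψ ∈ T) : ψ 1 * ν φ 1 = φ 1 * ν ψ 1 := by
  have m : ψ 1 • φ - φ 1 • ψ ∈ CS T := sub_mem (CS_smul _ (mem_CS hφ)) (CS_smul _ (mem_CS hψ))
  have e : (ψ 1 • φ - φ 1 • ψ) 1 = 0 := by simp [mul_comm]
  have := h.one _ (CS_mono hT m) e
  rw [← hν.agree _ m e] at this
  simpa [sub_eq_zero] using this

theorem exists_sign_of_one {ι : Type*} {P : ι → Prop} (d : ι → ℕ) (hd : ∀ i, P i → 0 < d i)
    (x : ι → G → ℂ) (hx : ∀ i, P i → Dirr (x i))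
    (h : ∀ i j, P i → P j → d j * x i 1 = d i * x j 1) :
    ∃ ε : ℤ, (ε = 1 ∨ ε = -1) ∧ ∀ i, P i → IsIrrCharacter G ((ε : ℂ) • x i) := by
  by_cases e : ∃ i, P i
  swap
  · exact ⟨1, Or.inl rfl, fun i hi => (e ⟨i, hi⟩).elim⟩
  obtain ⟨i, hi⟩ := e
  obtain ⟨ε, ψ, hε, hψ, e⟩ := (hx i hi).exists_sign
  refine ⟨ε, hε, fun j hj => Dirr.irr_of_deg_pos ?_ ?_⟩
  · rcases hε with rfl | rfl
    · simpa using hx j hj
    · simpa using (hx j hj).neg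
  have h1 := h i j hi hj
  have h2 : (ε : ℂ) * ε = 1 := by rcases hε with rfl | rfl <;> simp
  have h3 : (d i : ℂ) ≠ 0 := by exact_mod_cast (hd i hi).ne'
  have : ((ε : ℂ) • x j) 1 = ((d j * deg ψ / d i : ℝ) : ℂ) := by
    rw [e, Pi.smul_apply, ← IsChar.coe_deg (IsIrr.isChar hψ), smul_eq_mul] at h1
    push_cast
    rw [eq_div_iff h3, Pi.smul_apply, smul_eq_mul]
    linear_combination -ε * h1 + d j * deg ψ * h2
  rw [this, Complex.ofReal_re]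
  have := hd i hi
  have := hd j hj
  have := IsChar.deg_pos (IsIrr.isChar hψ) (IsIrr.ne_zero hψ)
  positivity

theorem CohWith.sign (h : IsoOn S τ) (irr : ∀ φ ∈ S, IsIrrCharacter L φ) {T : Finset (L → ℂ)}
    (hT : T ⊆ S) (hν : CohWith T τ ν) :
    ∃ ε : ℤ, (ε = 1 ∨ ε = -1) ∧ ∀ φ, φ ∈ T → IsIrrCharacter G ((ε : ℂ) • ν φ) :=
  exists_sign_of_one deg (fun φ hφ => IsChar.deg_pos (IsIrr.isChar (irr φ (hT hφ)))
    (IsIrr.ne_zero (irr φ (hT hφ)))) ν (fun φ hφ => hν.dirr hφ (irr φ (hT hφ))) fun φ ψ hφ hψ => by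
      rw [IsChar.coe_deg (IsIrr.isChar (irr φ (hT hφ))), IsChar.coe_deg (IsIrr.isChar (irr ψ (hT hψ))),
        hν.apply_one h hT hφ hψ]

theorem IsoOn.uniform_irr (h : IsoOn S τ) (irr : ∀ φ ∈ S, IsIrrCharacter L φ)
    (hd : ∀ φ ∈ S, ∀ ψ ∈ S, φ 1 = ψ 1) : Coh S τ := by
  rcases S.eq_empty_or_nonempty with rfl | ⟨η, hη⟩
  · exact coh_empty τ
  have m : ∀ φ : S, φ.1 - η ∈ ZS S := fun φ => sub_mem (mem_ZS φ.2) (mem_ZS hη)
  have z : ∀ φ : S, (φ.1 - η) 1 = 0 := fun φ => sub_eq_zero.2 (hd _ φ.2 _ hη)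
  have o : ∀ φ : S, φ ≠ ⟨η, hη⟩ → ⟪φ.1, η⟫ = 0 := fun φ e =>
    IsIrr.dot_ne (irr _ φ.2) (irr _ hη) fun f => e (Subtype.ext f)
  have k : ∀ φ ψ : S, φ ≠ ⟨η, hη⟩ → ψ ≠ ⟨η, hη⟩ → ⟪τ (φ.1 - η), τ (ψ.1 - η)⟫ = ⟪φ.1, ψ.1⟫ + 1 :=
    fun φ ψ e1 e2 => by
      rw [h.iso _ (CS_of_ZS (m φ)) _ (CS_of_ZS (m ψ)) (z φ) (z ψ), dot_sub_left, dot_sub_right,
        dot_sub_right, o φ e1, dot_comm_zero (o ψ e2), IsIrr.dot_self (irr η hη)]
      ring
  obtain ⟨ε, μ, hε, i, inj, e⟩ := vchar_isometry_base (⟨η, hη⟩ : S) (fun φ => τ (φ.1 - η))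
    (fun φ => h.zirr _ (m φ) (z φ)) (by simp) (fun φ => h.one _ (CS_of_ZS (m φ)) (z φ))
    (fun φ e => by rw [k φ φ e e, IsIrr.dot_self (irr _ φ.2)]; norm_num) fun φ ψ e1 e2 e => by
      rw [k φ ψ e1 e2, IsIrr.dot_ne (irr _ φ.2) (irr _ ψ.2) fun f => e (Subtype.ext f), zero_add]
  classical
  have h0 := IsIrr.deg_ne_zero (irr η hη)
  obtain ⟨ν, hν, -⟩ := cohWith_of_fun (fun φ hφ => IsIrr.ne_zero (irr φ hφ))
    (fun φ hφ ψ hψ => IsIrr.dot_ne (irr φ hφ) (irr ψ hψ)) τ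
    (fun φ => if hφ : φ ∈ S then (ε : ℂ) • μ ⟨φ, hφ⟩ else 0)
    (fun φ hφ => by rw [dif_pos hφ]; exact ZIrr.intCast_smul (IsIrr.mem_ZIrr (i _)) ε)
    (fun φ hφ ψ hψ => by
      rw [dif_pos hφ, dif_pos hψ, dot_smul_left, dot_smul_right, IsIrr.dot_eq (i _) (i _),
        IsIrr.dot_eq (irr φ hφ) (irr ψ hψ)]
      rcases hε with rfl | rfl <;> simp [inj.eq_iff]) hη h0 fun φ hφ => by
        rw [dif_pos hφ, dif_pos hη, hd φ hφ η hη, div_self h0, one_smul, one_smul, ← smul_sub]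
        exact e ⟨φ, hφ⟩
  exact ⟨ν, hν⟩

open Classical in
/-- Feit's criterion -/
theorem IsoOn.extend_irr (h : IsoOn S τ) (irr : ∀ φ ∈ S, IsIrrCharacter L φ) {S₁ : Finset (L → ℂ)}
    (hS : S₁ ⊆ S) (hν : Coh S₁ τ) {χ : L → ℂ} (hχ : χ ∈ S) (hn : χ ∉ S₁) {χ₁ : L → ℂ} (hχ₁ : χ₁ ∈ S₁)
    (hdvd : deg χ₁ ∣ deg χ) (hlt : (2 * deg χ * deg χ₁ : ℝ) < ∑ φ ∈ S₁, (deg φ : ℝ) ^ 2) :
    Coh (insert χ S₁) τ := by
  obtain ⟨ν, hν⟩ := hν
  obtain ⟨a, ha⟩ := hdvd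
  have hdeg : ∀ φ ∈ S, φ 1 = deg φ := fun φ hφ => (IsChar.coe_deg (IsIrr.isChar (irr φ hφ))).symm
  have hd : χ 1 = ((a : ℂ) • χ₁) 1 := by
    rw [Pi.smul_apply, hdeg χ hχ, hdeg χ₁ (hS hχ₁), ha]; push_cast; exact mul_comm _ _
  have hφ : (a : ℂ) • χ₁ ∈ ZS S₁ := ZS_natCast_smul a (mem_ZS hχ₁)
  have hm : χ - (a : ℂ) • χ₁ ∈ ZS S := sub_mem (mem_ZS hχ) (ZS_mono hS hφ)
  have h0 := IsIrr.deg_ne_zero (irr _ (hS hχ₁))
  set X := τ (χ - (a : ℂ) • χ₁) + ν ((a : ℂ) • χ₁) with hX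
  have hXz : X ∈ ZIrr G := add_mem (h.zirr _ hm (sub_eq_zero.mpr hd)) (hν.zirr' hφ)
  have ho1 : ∀ ψ ∈ CS S₁, ⟪ψ, χ⟫ = 0 := fun ψ hψ =>
    dot_CS_eq_zero (fun ψ hψ => IsIrr.dot_ne (irr ψ (hS hψ)) (irr χ hχ) fun e => hn (e ▸ hψ)) hψ
  obtain ⟨l, hl⟩ := ZIrr.dot_int (hν.zirr χ₁ hχ₁) hXz
  have h1 : ∀ ψ ∈ S₁, ⟪ν ψ, X⟫ = ψ 1 / χ₁ 1 * l := by
    intro ψ hψ
    have hm' : ψ - (ψ 1 / χ₁ 1) • χ₁ ∈ CS S₁ := sub_mem (mem_CS hψ) (CS_smul _ (mem_CS hχ₁))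
    have e1 : (ψ - (ψ 1 / χ₁ 1) • χ₁) 1 = 0 := by simp [h0]
    have : ⟪ν (ψ - (ψ 1 / χ₁ 1) • χ₁), X⟫ = 0 := by
      rw [hX, dot_add_right, hν.iso' hm' (CS_of_ZS hφ), hν.agree _ hm' e1,
        h.iso _ (CS_mono hS hm') _ (CS_of_ZS hm) e1 (sub_eq_zero.mpr hd), dot_sub_right, ho1 _ hm']
      ring
    rwa [map_sub, map_smul, dot_sub_left, dot_smul_left, hl, sub_eq_zero] at this
  have h2 : Chr.nrm X = 1 + 2 * a * l := by
    have e1 := h.nrm (CS_of_ZS hm) (sub_eq_zero.mpr hd)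
    rw [show τ (χ - (a : ℂ) • χ₁) = X - ν ((a : ℂ) • χ₁) by rw [hX]; abel, nrm_sub,
      nrm_sub_of_orth (dot_comm_zero (ho1 _ (CS_of_ZS hφ))), hν.nrm (CS_of_ZS hφ), map_smul,
      dot_smul_right, dot_comm_of_int hl, IsIrr.nrm (irr χ hχ)] at e1
    simp only [map_natCast, Complex.mul_re, Complex.natCast_re, Complex.intCast_re,
      Complex.natCast_im, Complex.intCast_im, mul_zero, sub_zero] at e1
    linarith
  have h6 := bessel S₁ ν (fun φ hφ => (hν.dirr hφ (irr φ (hS hφ))).dot_self) (fun φ hφ ψ hψ hne => by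
    rw [hν.iso φ hφ ψ hψ, IsIrr.dot_ne (irr φ (hS hφ)) (irr ψ (hS hψ)) hne]) X
  have h1' : ∀ ψ ∈ S₁, ⟪X, ν ψ⟫ = deg ψ / deg χ₁ * l := fun ψ hψ => by
    rw [← ZIrr.dot_comm (hν.zirr ψ hψ) hXz, h1 ψ hψ, hdeg ψ (hS hψ), hdeg χ₁ (hS hχ₁)]
  have hd1 : (0 : ℝ) < deg χ₁ := by
    rw [hdeg χ₁ (hS hχ₁), Nat.cast_ne_zero] at h0
    exact_mod_cast Nat.pos_of_ne_zero h0
  rw [Finset.sum_congr rfl (g := fun φ => (l : ℝ) ^ 2 / (deg χ₁) ^ 2 * (deg φ : ℝ) ^ 2) (fun ψ hψ => by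
      rw [h1' ψ hψ, norm_mul, norm_div, Complex.norm_natCast, Complex.norm_natCast, Complex.norm_intCast,
        mul_pow, sq_abs]
      ring), ← Finset.mul_sum, h2] at h6
  rw [ha] at hlt
  push_cast at hlt
  have hl0 : l = 0 := by
    by_contra hl0
    have e1 : (l : ℝ) ≤ l ^ 2 := by exact_mod_cast Int.le_self_sq l
    have e2 : (0 : ℝ) < (l : ℝ) ^ 2 / (deg χ₁) ^ 2 := by positivity
    have e3 := mul_lt_mul_of_pos_left hlt e2
    rw [show (l : ℝ) ^ 2 / (deg χ₁) ^ 2 * (2 * (deg χ₁ * a) * deg χ₁) = 2 * a * l ^ 2 by field_simp] at e3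
    have a0 : (0 : ℝ) ≤ a := Nat.cast_nonneg _
    have z : X - ∑ φ ∈ S₁, ⟪X, ν φ⟫ • ν φ = 0 := ZIrr.eq_zero_of_nrm_lt_one (sub_mem hXz (sum_mem
      fun φ hφ => ZIrr.smul_of_int (hν.zirr φ hφ) (ZIrr.dot_int hXz (hν.zirr φ hφ)))) (by nlinarith)
    rw [z, nrm_zero, add_zero] at h6
    have e4 := congrFun z 1
    have n0 := (hν.dirr hχ₁ (irr _ (hS hχ₁))).deg_ne_zero
    rw [Pi.sub_apply, Finset.sum_apply, hX, Pi.add_apply, h.one _ (CS_of_ZS hm) (sub_eq_zero.mpr hd),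
      Finset.sum_congr rfl (g := fun φ => l / (deg χ₁) ^ 2 * ν χ₁ 1 * (deg φ : ℂ) ^ 2) fun ψ hψ => by
        have := hν.apply_one h hS hψ hχ₁
        rw [hdeg χ₁ (hS hχ₁)] at h0 this
        rw [← hX, h1' ψ hψ, Pi.smul_apply, smul_eq_mul, ← mul_div_cancel_left₀ (ν ψ 1) h0, this,
          hdeg ψ (hS hψ)]
        field_simp, ← Finset.mul_sum, map_smul, Pi.smul_apply, smul_eq_mul, zero_add, Pi.zero_apply,
      sub_eq_zero, mul_right_comm, mul_left_inj' n0] at e4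
    have e5 : (a : ℝ) = l / (deg χ₁) ^ 2 * ∑ φ ∈ S₁, (deg φ : ℝ) ^ 2 := by exact_mod_cast e4
    have e6 : (l : ℝ) ^ 2 / (deg χ₁) ^ 2 * ∑ φ ∈ S₁, (deg φ : ℝ) ^ 2 = a * l := by rw [e5]; ring
    rw [e6] at h6 e3
    have : (1 : ℝ) ≤ l ^ 2 := by exact_mod_cast (one_le_sq_iff_one_le_abs l).2 (Int.one_le_abs hl0)
    nlinarith
  subst hl0
  have i := irr χ hχ
  obtain ⟨ν₂, h₂, e₂⟩ := cohWith_of_fun (S := {χ}) (by simpa using IsIrr.ne_zero i) (by simp) τ (fun _ => X)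
    (fun _ _ => hXz) (by simp [dot_self, h2, IsIrr.nrm i]) (Finset.mem_singleton_self _)
    (IsIrr.deg_ne_zero i) (by simp [IsIrr.deg_ne_zero i])
  have s : {χ} ∪ S₁ ⊆ S := Finset.union_subset (by simpa) hS
  have e₂ := e₂ χ (Finset.mem_singleton_self _)
  obtain ⟨ν', h', -⟩ := bridge_coh (fun φ hφ => IsIrr.ne_zero (irr φ (s hφ)))
    (fun φ hφ ψ hψ => IsIrr.dot_ne (irr φ (s hφ)) (irr ψ (s hψ))) (by simpa) h₂ hν
    (fun φ hφ ψ hψ => by rw [Finset.mem_singleton.1 hφ, e₂, h1' ψ hψ]; simp)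
    (mem_CS (Finset.mem_singleton_self _)) (CS_of_ZS hφ) hd (IsIrr.deg_ne_zero i) (by rw [e₂, hX]; abel)
  exact ⟨ν', by simpa using h'⟩

theorem IsoOn.extend_all_irr (h : IsoOn S τ) (irr : ∀ φ ∈ S, IsIrrCharacter L φ)
    {S₀ T : Finset (L → ℂ)} (hS₀ : S₀ ⊆ S) (coh : Coh S₀ τ) {χ₁ : L → ℂ} (hχ₁ : χ₁ ∈ S₀) (hT : T ⊆ S)
    (H : ∀ χ ∈ T, deg χ₁ ∣ deg χ ∧ (2 * deg χ * deg χ₁ : ℝ) < ∑ φ ∈ S₀, (deg φ : ℝ) ^ 2) :
    Coh T τ := by
  classical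
  suffices Coh (T ∪ S₀) τ from this.mono Finset.subset_union_left
  induction T using Finset.induction_on with
  | empty => simpa
  | insert χ T _ ih =>
    have := ih ((Finset.subset_insert _ _).trans hT) fun φ hφ => H φ (Finset.mem_insert_of_mem hφ)
    rw [Finset.insert_union]
    by_cases hχ : χ ∈ T ∪ S₀
    · rwa [Finset.insert_eq_of_mem hχ]
    obtain ⟨hd, hl⟩ := H χ (Finset.mem_insert_self _ _)
    convert h.extend_irr irr (Finset.union_subset ((Finset.subset_insert _ _).trans hT) hS₀) this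
      (hT (Finset.mem_insert_self _ _)) hχ (Finset.mem_union_right _ hχ₁) hd (hl.trans_le
        (Finset.sum_le_sum_of_subset_of_nonneg Finset.subset_union_right fun φ _ _ => sq_nonneg _))

theorem IsoOn.coh_orth_irr (h : IsoOn S τ) (irr : ∀ φ ∈ S, IsIrrCharacter L φ) {X Y : Finset (L → ℂ)}
    (hX : X ⊆ S) (hY : Y ⊆ S) (hd : Disjoint X Y) (X2 : 1 < X.card) (Y2 : 1 < Y.card)
    {σ : (L → ℂ) →ₗ[ℂ] (G → ℂ)} (hσ : CohWith X τ σ) (hν : CohWith Y τ ν) :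
    ∀ χ ∈ X, ∀ η ∈ Y, ⟪σ χ, ν η⟫ = 0 := by
  intro χ hχ η hη
  obtain ⟨χ', hχ', n1⟩ := Finset.exists_mem_ne X2 χ
  obtain ⟨η', hη', n2⟩ := Finset.exists_mem_ne Y2 η
  obtain ⟨ε, hε, i⟩ := hσ.sign h irr hX
  obtain ⟨δ, hδ, j⟩ := hν.sign h irr hY
  have m : χ' 1 • χ - χ 1 • χ' ∈ CS X := sub_mem (CS_smul _ (mem_CS hχ)) (CS_smul _ (mem_CS hχ'))
  have m' : η' 1 • η - η 1 • η' ∈ CS Y := sub_mem (CS_smul _ (mem_CS hη)) (CS_smul _ (mem_CS hη'))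
  have e : (χ' 1 • χ - χ 1 • χ') 1 = 0 := by simp [mul_comm]
  have e' : (η' 1 • η - η 1 • η') 1 = 0 := by simp [mul_comm]
  have o := h.iso _ (CS_mono hX m) _ (CS_mono hY m') e e'
  rw [dot_CS_eq_zero (fun φ hφ => dot_comm_zero (dot_CS_eq_zero (fun ψ hψ => IsIrr.dot_ne (irr _ (hY hψ))
    (irr _ (hX hφ)) fun f => Finset.disjoint_left.1 hd hφ (f ▸ hψ)) m')) m, ← hσ.agree _ m e,
    ← hν.agree _ m' e'] at o
  have k : ∀ a b, ⟪(ε : ℂ) • σ a, (δ : ℂ) • ν b⟫ = ε * δ * ⟪σ a, ν b⟫ := fun a b => by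
    rw [dot_smul_left, dot_smul_right, map_intCast, mul_assoc]
  have n : (ε : ℂ) * δ ≠ 0 := by rcases hε with rfl | rfl <;> rcases hδ with rfl | rfl <;> simp
  by_contra f
  have q := IsIrr.eq_of_dot_ne_zero (i χ hχ) (j η hη) (k χ η ▸ mul_ne_zero n f)
  have a1 : ⟪σ χ, ν η'⟫ = 0 := by
    rw [← mul_eq_zero_iff_left n, ← k, q, dot_smul_left, dot_smul_right, hν.iso _ hη _ hη',
      IsIrr.dot_ne (irr _ (hY hη)) (irr _ (hY hη')) n2.symm, mul_zero, mul_zero]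
  have a2 : ⟪σ χ', ν η⟫ = 0 := by
    rw [← mul_eq_zero_iff_left n, ← k, ← q, dot_smul_left, dot_smul_right, hσ.iso _ hχ' _ hχ,
      IsIrr.dot_ne (irr _ (hX hχ')) (irr _ (hX hχ)) n1, mul_zero, mul_zero]
  have a3 := k χ η
  rw [q, IsIrr.dot_self (j η hη)] at a3
  have a4 := k χ' η'
  have d : ∀ φ ∈ S, φ 1 = deg φ := fun φ hφ => (IsChar.coe_deg (IsIrr.isChar (irr φ hφ))).symm
  have p : ∀ φ ∈ S, 0 < deg φ := fun φ hφ =>
    IsChar.deg_pos (IsIrr.isChar (irr φ hφ)) (IsIrr.ne_zero (irr φ hφ))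
  simp only [map_sub, map_smul, dot_sub_left, dot_sub_right, dot_smul_left, dot_smul_right, a1, a2,
    d _ (hX hχ), d _ (hX hχ'), d _ (hY hη), d _ (hY hη'), map_natCast] at o
  have p1 := p _ (hX hχ')
  have p2 := p _ (hY hη')
  rw [IsIrr.dot_eq (i χ' hχ') (j η' hη')] at a4
  split_ifs at a4
  · have : ((deg χ' * deg η' + deg χ * deg η : ℕ) : ℂ) = 0 := by
      push_cast; linear_combination ε * δ * o + deg χ' * deg η' * a3 + deg χ * deg η * a4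
    exact absurd (Nat.cast_eq_zero.1 this) (by positivity)
  · have : ((deg χ' * deg η' : ℕ) : ℂ) = 0 := by
      push_cast; linear_combination ε * δ * o + deg χ' * deg η' * a3 + deg χ * deg η * a4
    exact absurd (Nat.cast_eq_zero.1 this) (by positivity)

end General

variable {G G' : Type*} [Group G] [Finite G] [Group G'] [Finite G'] {K L : Subgroup G} (nK : K ⊲ L)
  (hC : ∀ k ∈ K, k ≠ 1 → L ⊓ 𝒞[k] ≤ K)
include nK hC

omit nK in
theorem frob_bot_of_cent : ∀ k ∈ K, k ∉ (⊥ : Subgroup G) → ∀ x ∈ L, x * k * x⁻¹ * k⁻¹ ∈ (⊥ : Subgroup G) →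
    x ∈ K := fun k hk k1 x hx e => hC k hk k1 ⟨hx, Subgroup.mem_centralizer_singleton_iff.2 (by
      rwa [Subgroup.mem_bot, mul_inv_eq_one, mul_inv_eq_iff_eq_mul] at e)⟩

theorem exists_isFrob_of_cent (h1 : K ≠ ⊥) (h2 : K ≠ L) : ∃ E, IsFrob L K E := by
  have c := coprime_of_frob_mod nK (norm_bot _) bot_le (frob_bot_of_cent hC)
  rw [Subgroup.relIndex_bot_left] at c
  obtain ⟨E, hE⟩ := exists_complIn_of_coprime nK c.symm
  refine ⟨E, hE, h1, fun e => h2 (by rw [← hE.sup_eq, e, sup_bot_eq]), fun x hx x1 =>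
    (Subgroup.eq_bot_iff_forall _).2 fun y hy => by_contra fun y1 => x1 ?_⟩
  exact (Subgroup.eq_bot_iff_forall _).1 hE.inf_eq x ⟨hC y hy.1 y1
    ⟨hE.right_le hx, mem_cent_singleton_comm.1 hy.2⟩, hx⟩

omit nK hC in
theorem IsFrob_abelian_of_even {E : Subgroup G} (h : IsFrob L K E) (he : Even (Nat.card E)) :
    IsMulCommutative K := by
  obtain ⟨t, ht⟩ := exists_prime_orderOf_dvd_card' (G := E) 2 he.two_dvd
  have t1 : (t : G) ≠ 1 := fun f => by simp [show t = 1 from Subtype.ext f] at ht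
  have t2 : (t : G) * t = 1 := by
    have := pow_orderOf_eq_one t
    rw [ht, sq] at this
    exact congrArg Subtype.val this
  haveI := nInj h.1.normal
  let φ := cj (Subgroup.inclusion h.1.left_le) ⟨t, h.1.right_le t.2⟩
  have hφ : ∀ k : K, (φ k : G) = t * k * (t : G)⁻¹ := fun k =>
    congrArg Subtype.val (f_cj (Subgroup.inclusion h.1.left_le) _ k)
  refine ⟨⟨fun a b => MonoidHom.FixedPointFree.commute_all_of_involutive (φ := φ) (fun k e => ?_)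
    (fun k => Subtype.ext ?_) a b⟩⟩
  · refine Subtype.ext ((Subgroup.eq_bot_iff_forall _).1 (h.2.2.2 t t.2 t1) k ⟨k.2, ?_⟩)
    exact Subgroup.mem_centralizer_singleton_iff.2 (by rw [← mul_inv_eq_iff_eq_mul.1 ((hφ k).symm.trans
      (congrArg Subtype.val e))])
  · rw [hφ, hφ, ← mul_assoc, ← mul_assoc, t2, mul_assoc, mul_assoc, ← mul_inv_rev, t2]; simp

theorem succ_le_relIndex (h2 : K ≠ L) {V N : Subgroup G} (nV : L ≤ 𝒩(V)) (nN : L ≤ 𝒩(N)) (hNV : N < V)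
    (hV : V ≤ K) : K.relIndex L + 1 ≤ N.relIndex V := by
  obtain ⟨E, fr⟩ := exists_isFrob_of_cent nK hC (fun e => hNV.not_ge (hV.trans (e ▸ bot_le))) h2
  have := one_lt_relIndex' hNV
  have := Nat.le_of_dvd (by omega) (dvd_of_frob_mod nK nV nN hNV.le hV (frob_mod_of_cent_le fr.1
    (Frobenius_coprime fr) nN (hNV.le.trans hV) fun x hx x1 => by rw [fr.2.2.2 x hx x1]; exact bot_le))
  omega

theorem mem_SD_of_cent (χ : L → ℂ) :
    χ ∈ SD nK.1 K ⊥ ↔ IsIrrCharacter L χ ∧ ∃ k : L, (k : G) ∈ K ∧ χ k ≠ χ 1 := by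
  rw [mem_SD_iff_of_irr nK nK.2 le_rfl (SD_irr_of_frob_mod nK (norm_bot _) (frob_bot_of_cent hC) K)]
  refine and_congr_right fun i => ?_
  simp only [SetLike.not_le_iff_exists, IsIrr.mem_cfker i, Subgroup.mem_subgroupOf]

theorem card_eq_of_SD_card (nilK : Group.IsNilpotent K) (h1 : K ≠ ⊥) (h2 : K ≠ L)
    (h : (SD nK.1 K ⊥).card ≤ 1) : (SD nK.1 K ⊥).card = 1 ∧ Nat.card K = K.relIndex L + 1 ∧
      ∀ p : ℕ, p.Prime → p ∣ Nat.card K → IsElementaryAbelian p K := by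
  obtain ⟨φ, hφ, dφ, -⟩ := exists_lin_SD_of_sol nK inferInstance h1.bot_lt (norm_bot _)
  have e := Finset.eq_singleton_iff_unique_mem.2 ⟨hφ, fun ψ hψ => Finset.card_le_one.1 h ψ hψ φ hφ⟩
  have s := sum_SD_sq_nat nK nK.2 (norm_bot _) bot_le le_rfl
    (SD_irr_of_frob_mod nK (norm_bot _) (frob_bot_of_cent hC) K)
  rw [e, Finset.sum_singleton, dφ, Subgroup.relIndex_self, one_mul, sq, Subgroup.relIndex_bot_left,
    Nat.mul_right_inj (relIndex_pos _ _).ne'] at s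
  have c : Nat.card K = K.relIndex L + 1 := by have := Nat.card_pos (α := K); omega
  refine ⟨by rw [e, Finset.card_singleton], c, fun p hp hd => ?_⟩
  have nP := norm_pcore {p} nK.2
  have s := (ohm1_le p 𝒵(pCoreOf p K)).trans (inf_le_left.trans (pcore_le _ _))
  have := succ_le_relIndex nK hC h2 (norm_ohm1 p (norm_inf nP (norm_cent nP))) (norm_bot _)
    (ohm1_ne_bot ((pcore_pGrp p K).of_le inf_le_left) (center_nil_ne_bot (pcore_pGrp p K).nil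
      ((nilpotent_pcore_Hall {p} nilK).ne_bot hp rfl hd))).bot_lt s
  rw [Subgroup.relIndex_bot_left, ← c] at this
  exact Subgroup.eq_of_le_of_card_ge s this ▸ ohm1_center_abelem p _

variable {τ : (L → ℂ) →ₗ[ℂ] (G' → ℂ)} (hS : IsoOn (SD nK.1 K ⊥) τ)
include hS

theorem feit_bound (solK : Group.IsSolvable K) {A B D : Subgroup G} (nA : L ≤ 𝒩(A)) (hAK : A < K)
    (hZ : ⁅D, K⁆ ≤ B) (cohA : Coh (SD nK.1 K A) τ) (ncohB : ¬ Coh (SD nK.1 K B) τ) :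
    (A.relIndex K - 1) ^ 2 ≤ 4 * K.relIndex L ^ 2 * D.relIndex K := by
  by_contra hlt
  rw [not_le] at hlt
  have irr := SD_irr_of_frob_mod nK (norm_bot _) (frob_bot_of_cent hC) K
  obtain ⟨φ, hφ, dφ, -⟩ := exists_lin_SD_of_sol nK solK hAK (nK.1.trans nA)
  refine ncohB (hS.extend_all_irr irr SD_sub_bot cohA hφ SD_sub_bot fun χ hχ =>
    ⟨dφ ▸ SD_index_dvd nK hχ, ?_⟩)
  obtain ⟨θ, hθ, -, h2, rfl⟩ := mem_SD.1 hχ
  have hb := IsIrr.deg_sq_le_index hθ (D.subgroupOf K)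
    fun d hd c => h2 (hZ (Subgroup.commutator_mem_commutator hd c.2))
  have s := sum_SD_sq_nat nK nK.2 nA hAK.le le_rfl fun χ hχ => irr χ (SD_sub_bot hχ)
  rw [Subgroup.relIndex_self, one_mul] at s
  rw [dφ, deg_indA _ (IsIrr.isChar hθ)]
  norm_cast
  rw [s, mul_comm]
  refine (Nat.mul_lt_mul_left (relIndex_pos _ _)).2 (lt_of_pow_lt_pow_left₀ 2 (Nat.zero_le _)
    (lt_of_le_of_lt ?_ hlt))
  have := Nat.mul_le_mul_left (4 * K.relIndex L ^ 2) hb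
  exact le_of_eq_of_le (by ring) this

/-- Feit's theorem for a nilpotent Frobenius kernel -/
theorem feit_coherence (nilK : Group.IsNilpotent K) (h2 : K ≠ L) (nc : ¬ Coh (SD nK.1 K ⊥) τ) :
    ∃ p : ℕ, p.Prime ∧ IsPGrp p K ∧ ¬ IsMulCommutative K ∧
      ⁅K, K⁆.relIndex K ≤ 4 * K.relIndex L ^ 2 + 1 := by
  have irr := SD_irr_of_frob_mod nK (norm_bot _) (frob_bot_of_cent hC) K
  have coh : Coh (SD nK.1 K ⁅K, K⁆) τ := (hS.mono SD_sub_bot).uniform_irr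
    (fun χ hχ => irr χ (SD_sub_bot hχ)) fun φ hφ ψ hψ => by
      rw [SD_deg_of_der_le nK le_rfl φ hφ, SD_deg_of_der_le nK le_rfl ψ hψ]
  obtain ⟨A, hA, ⟨nA, cohA⟩, min⟩ := exists_min_subgroup
    (P := fun A => L ≤ 𝒩(A) ∧ Coh (SD nK.1 K A) τ) (H := ⁅K, K⁆) ⟨norm_comm nK.2 nK.2, coh⟩
  have A1 : A ≠ ⊥ := fun e => nc (e ▸ cohA)
  have hAK := hA.trans (der_le K)
  have lt : ⁅K, K⁆ < K := der_lt_of_sol inferInstance fun e => A1 (le_bot_iff.1 (e ▸ hAK))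
  have hc : ⁅A, K⁆ ≤ A := comm_le_left (nK.1.trans nA)
  obtain ⟨p, hp, hd⟩ := Nat.exists_prime_and_dvd (one_lt_relIndex' (hc.lt_of_ne fun e =>
    nil_not_le_comm nilK hAK le_rfl A1 e.ge)).ne'
  have nc' := norm_comm nA nK.2
  set B := ⁅A, K⁆ ⊔ piCoreOf {p}ᶜ A with hB
  have nB : L ≤ 𝒩(B) := norm_sup nc' (norm_pcore _ nA)
  have hBA : B ≤ A := sup_le hc (pcore_le _ _)
  have hall := nilpotent_pcore_Hall {p}ᶜ (nil_of_le nilK hAK)
  have BA : B ≠ A := fun e => by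
    have := relIndex_sup_of_right_le_norm ((pcore_le {p}ᶜ A).trans (hAK.trans (nK.1.trans nc')))
    rw [← hB, e] at this
    exact (pcore_piGrp {p}ᶜ A) p hp (hd.trans (this ▸ Subgroup.relIndex_dvd_card _ _)) rfl
  have ncB : ¬ Coh (SD nK.1 K B) τ := fun c => BA (min _ ⟨nB, c⟩ hBA)
  have b := fun {D} hZ => feit_bound nK hC hS inferInstance (D := D) nA (hA.trans_lt lt) hZ cohA ncB
  have nBK := nK.1.trans nB
  refine ⟨p, hp, ?_, fun ab => A1 (le_bot_iff.1 (der_eq_bot_iff.2 ab ▸ hA)), ?_⟩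
  · set D := quotPre B 𝒵(K /ₛ B)
    have hD : D ≤ K := quotPre_le_of_le_quot (hBA.trans hAK) inf_le_left
    have nD : L ≤ 𝒩(D) := le_norm_quotPre nB (norm_inf (quot_norm B nK.2) (norm_cent (quot_norm B nK.2)))
    have cD : ⁅D, K⁆ ≤ B := by
      rw [← quot_eq_bot_iff ((comm_le_of_le hD le_rfl).trans nBK), quot_comm (hD.trans nBK) nBK,
        quot_quotPre, comm_eq_bot_iff]
      exact inf_le_right
    have AD : A ≤ D := by
      refine (quot_le_iff (hAK.trans nBK)).1 (le_inf (quot_mono B hAK) ?_)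
      rw [← comm_eq_bot_iff, ← quot_comm (hAK.trans nBK) nBK, quot_eq_bot_iff (hc.trans (hAK.trans nBK))]
      exact le_sup_left
    have DK : D ≠ K := fun e => BA (le_antisymm hBA (hA.trans (by simpa [e] using cD)))
    by_cases e : A = D
    · have pZ : IsPGrp p 𝒵(K /ₛ B) := by
        rw [← quot_quotPre (K := B) 𝒵(K /ₛ B)]
        change IsPGrp p (D /ₛ B)
        rw [← e, IsPGrp, IsPiGrp, card_quot (hAK.trans nBK)]
        simpa using hall.index.of_dvd (Subgroup.relIndex_dvd_of_le_left _ le_sup_right)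
      have nQ := nil_quot B nilK
      have pQ : IsPGrp p (K /ₛ B) := by
        have : piCoreOf {p}ᶜ (K /ₛ B) = ⊥ := by
          by_contra f
          exact nil_inf_cent_ne_bot nQ (pcore_le _ _) le_rfl (pcore_norm _ _) f
            (((pcore_piGrp {p}ᶜ _).of_le inf_le_left).eq_bot (by
              simpa using pZ.of_le (inf_le_inf_right _ (pcore_le _ _))))
        simpa using (nilpotent_pcore_Hall {p}ᶜ nQ).eq_bot_iff.1 this
      refine pcore_eq_self_iff.1 (eq_of_nil_of_le_der_sup nilK (pcore_le _ _) (ge_of_eq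
        ((nilpotent_pcore_Hall {p} nilK).sup_eq_of_index lt.le ?_)))
      rw [IsPGrp, IsPiGrp, card_quot nBK] at pQ
      exact pQ.of_dvd (Subgroup.relIndex_dvd_of_le_left _ (hBA.trans hA))
    · exfalso
      have b := b cD
      have a1 := succ_le_relIndex nK hC h2 nD nA (AD.lt_of_ne e) hD
      have a2 := one_lt_relIndex' (hD.lt_of_ne DK)
      have a3 := succ_le_relIndex nK hC h2 nK.2 nD (hD.lt_of_ne DK) le_rfl
      have a4 := relIndex_pos K L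
      rw [relIndex_mul' AD hD] at b
      generalize D.relIndex K = y at *
      generalize K.relIndex L = e at *
      have h3 : e * (y + 1) ≤ A.relIndex D * y - 1 := Nat.le_sub_one_of_lt (by nlinarith)
      have := (Nat.pow_le_pow_left h3 2).trans b
      have h4 : 4 * y < (y + 1) ^ 2 := by nlinarith
      have := Nat.mul_lt_mul_of_pos_left h4 (Nat.pow_pos a4 (n := 2))
      nlinarith
  · have b := b (le_sup_left : ⁅A, K⁆ ≤ B)
    refine (Subgroup.relIndex_le_of_le_left hA (relIndex_pos _ _).ne').trans ?_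
    by_contra f
    obtain ⟨x, hx⟩ : ∃ x, A.relIndex K = x + 1 := ⟨A.relIndex K - 1, by omega⟩
    rw [hx] at b f
    simp only [Nat.add_sub_cancel] at b
    nlinarith

end CA.Chr
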