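import Cfsg.Agent.PF.Feit

/-!
# The Feit-Sibley theorem in the language of the prelude.
-/

set_option autoImplicit false
set_option linter.unusedSectionVars false

open scoped ComplexConjugate

open Cfsg CA.FG CA.BG

namespace CA.Chr

theorem isCoherent_of_irr {L G : Type*} [Group L] [Fintype L] [Group G] [Fintype G]
    {S : Finset (L → ℂ)} (irr : ∀ φ ∈ S, IsIrrCharacter L φ) {τ : (L → ℂ) → G → ℂ}
    {τ' : (L → ℂ) →ₗ[ℂ] (G → ℂ)} (h : ∀ α ∈ zspanOn (S : Set (L → ℂ)) {1}ᶜ, τ' α = τ α) :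
    IsCoherent (S : Set (L → ℂ)) {1}ᶜ τ ↔ 1 < S.card ∧ Coh S τ' := by
  rw [isCoherent_iff (deg_int_of_char fun φ hφ => IsIrr.isChar (irr φ hφ)) h]
  refine and_congr_left fun _ => ⟨fun ⟨α, hα, h0⟩ => by_contra fun c => h0 ?_, fun c => ?_⟩
  · rw [mem_zspanOn] at hα
    obtain ⟨φ, hφ⟩ := Finset.card_le_one_iff_subset_singleton.1 (not_lt.1 c)
    by_cases e : φ ∈ S
    · obtain ⟨n, rfl⟩ := Submodule.mem_span_singleton.1
        (Submodule.span_mono (t := {φ}) (by simpa using Finset.coe_subset.2 hφ) hα.1)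
      have := hα.2
      simp only [Pi.smul_apply, smul_eq_zero, IsIrr.deg_ne_zero (irr φ e), or_false] at this
      simp [this]
    · obtain rfl : S = ∅ := Finset.eq_empty_of_forall_notMem fun ψ hψ =>
        e (Finset.mem_singleton.1 (hφ hψ) ▸ hψ)
      simpa using hα.1
  · obtain ⟨φ, hφ, ψ, hψ, e⟩ := Finset.one_lt_card.1 c
    exact exists_zspanOn_ne_zero hφ hψ (IsIrr.isChar (irr φ hφ)) (IsIrr.isChar (irr ψ hψ))
      (IsIrr.ne_zero (irr φ hφ)) (IsIrr.ne_zero (irr ψ hψ)) (IsIrr.dot_ne (irr φ hφ) (irr ψ hψ) e)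

theorem feit_sibley {G : Type*} [Group G] [Fintype G] {K : Subgroup G} (hK1 : K ≠ ⊥)
    (hnil : Group.IsNilpotent K) (hTI : IsTISubset (K : Set G)) (hlt : K < 𝒩(K))
    (hC : ∀ k ∈ K, k ≠ 1 → 𝒞[k] ≤ K) [Fintype 𝒩(K)] :
    (Nat.card {χ : 𝒩(K) → ℂ // IsIrrCharacter 𝒩(K) χ ∧ ∃ k : 𝒩(K), (k : G) ∈ K ∧ χ k ≠ χ 1} = 1 ∧
      Nat.card K = K.relIndex 𝒩(K) + 1 ∧ ∀ p : ℕ, p.Prime → p ∣ Nat.card K → IsElementaryAbelian p K) ∨
    (IsPGrp 2 K ∧ ⁅K, K⁆.relIndex K < 4 * K.relIndex 𝒩(K) ^ 2) ∨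
    IsCoherent {χ : 𝒩(K) → ℂ | IsIrrCharacter 𝒩(K) χ ∧ ∃ k : 𝒩(K), (k : G) ∈ K ∧ χ k ≠ χ 1} {1}ᶜ
      (fun α => indFun 𝒩(K) α) := by
  have ti := normedTI_of_TI hK1 hTI
  have nK := NormedTI_sharp_normal ti
  have h := dadeInd_of_TI nK ti
  have hC' : ∀ k ∈ K, k ≠ 1 → 𝒩(K) ⊓ 𝒞[k] ≤ K := fun k hk k1 => inf_le_right.trans (hC k hk k1)
  have m := mem_SD_of_cent nK hC'
  have e : {χ : 𝒩(K) → ℂ | IsIrrCharacter 𝒩(K) χ ∧ ∃ k : 𝒩(K), (k : G) ∈ K ∧ χ k ≠ χ 1} =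
      SD nK.1 K ⊥ := Set.ext fun χ => (m χ).symm
  by_cases c : (SD nK.1 K ⊥).card ≤ 1
  · obtain ⟨c1, c2⟩ := card_eq_of_SD_card nK hC' hnil hK1 hlt.ne c
    refine Or.inl ⟨?_, c2⟩
    rw [← c1, ← Nat.card_eq_finsetCard]
    exact Nat.card_congr (Equiv.subtypeEquivRight fun χ => (m χ).symm)
  rw [e, isCoherent_of_irr (fun φ hφ => ((m φ).1 hφ).1) (τ' := dade (sharp K) 𝒩(K) fun _ => ⊥)
    fun α hα => by
      rw [indFun_eq]
      exact h.dade_eq_ind ti (CS_mono (SD_sub_ST _ K ⊥) (CS_of_ZS hα.1)) (mem_zspanOn.1 hα).2]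
  refine Or.inr (or_iff_not_imp_right.2 fun nc => ?_)
  replace nc := fun coh => nc ⟨not_le.1 c, coh⟩
  obtain ⟨p, hp, pK, nab, hb⟩ := feit_coherence nK hC' (h.isoOn.mono (SD_sub_ST _ K ⊥)) hnil hlt.ne nc
  obtain ⟨E, fr⟩ := exists_isFrob_of_cent nK hC' hK1 hlt.ne
  have oE : Odd (Nat.card E) := Nat.not_even_iff_odd.1 fun f => nab (IsFrob_abelian_of_even fr f)
  have eK : Even (Nat.card K) := Nat.not_odd_iff_even.1 fun f =>
    nc (Sibley_coherence_Frob h (fr.1.card_mul ▸ f.mul oE) hnil ti fr)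
  obtain rfl : 2 = p := pK 2 Nat.prime_two eK.two_dvd
  refine ⟨pK, ?_⟩
  obtain ⟨m, hm⟩ := (pGrp_iff_card hp).1 pK
  obtain ⟨k, -, hk⟩ := (Nat.dvd_prime_pow hp).1 (hm ▸ Subgroup.relIndex_dvd_card ⁅K, K⁆ K)
  have h1 := one_lt_relIndex' hlt
  have h2 := one_lt_relIndex' (der_lt_of_sol inferInstance hK1)
  rw [fr.1.1.relIndex_left] at h1 hb ⊢
  rw [hk] at h2 hb ⊢
  rcases hb.eq_or_lt with hb | hb
  · rcases k with _ | k
    · simp at h2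
    · rw [pow_succ 2 k] at hb; omega
  refine (Nat.lt_succ_iff.1 hb).lt_of_ne fun f => h1.ne' ?_
  exact Nat.eq_one_of_dvd_coprimes (oE.coprime_two_right.pow_right k) dvd_rfl
    (f ▸ (dvd_pow_self _ two_ne_zero).mul_left _)

end CA.Chr
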