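import Cfsg.Agent.TG.Stab
import Cfsg.Agent.Dih.Frob
import Cfsg.Agent.BG.I03
import Cfsg.Agent.Char.Burn

/-!
# The Glauberman-Thompson normal complement theorem (`p ≥ 5`) and Thompson's theorem on Frobenius kernels
-/

set_option autoImplicit false
set_option linter.unusedSectionVars false

open Subgroup Cfsg CA.FG CA.BG CA.BG.P06 CA.Dih CA.TG

namespace CA.Chr

universe u

variable {G : Type u} [Group G] [Finite G] {p : ℕ}

local notation "NPC(" p ", " H ")" => IsPiHallOf {p}ᶜ (pPrimeCoreOf p H) H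

theorem npc_quot {H K : Subgroup G} (h : NPC(p, H)) (hK : H ≤ 𝒩(K)) : NPC(p, H /ₛ K) :=
  pcore_pHall_of_normal (h.quot hK) (quot_norm K (pcore_norm _ H))

theorem npc_of_quot {H K : Subgroup G} (nK : K ⊲ H) (pK : IsPiGrp {p}ᶜ K) (h : NPC(p, H /ₛ K)) :
    NPC(p, H) :=
  pcore_pHall_of_normal (h.quotPre_of nK pK) (quotPre_normalIn_of nK (pcore_normal _ _)).2

theorem npc_of_piGrp {H : Subgroup G} (h : IsPiGrp {p}ᶜ H) : NPC(p, H) :=
  pcore_pHall_of_normal (pHall_refl h) le_normalizer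

theorem npc_of_pGrp {H : Subgroup G} (h : IsPGrp p H) : NPC(p, H) :=
  pcore_pHall_of_normal (pHall_bot (by rwa [compl_compl])) (norm_bot H)

theorem npc_cent {H U Q : Subgroup G} (h : NPC(p, H)) (hU : U ≤ H) (pU : IsPGrp p U) (hQ : Q ≤ H)
    (pQ : IsPiGrp {p}ᶜ Q) (nQ : Q ≤ 𝒩(U)) : Q ≤ 𝒞(U) := by
  have h1 := h.le_of_normal (pcore_norm _ H) pQ hQ
  rw [← comm_eq_bot_iff, ← le_bot_iff, ← pU.inf_eq_bot (pcore_piGrp {p}ᶜ H)]
  exact le_inf (comm_le_right nQ) ((commutator_mono h1 hU).trans (comm_le_left (pcore_norm _ H)))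

theorem npc_hyp_conj (hp : p.Prime) {H S R : Subgroup G} (sylS : IsSylowOf p S H) (sylR : IsSylowOf p R H)
    (h : NPC(p, H ⊓ 𝒩(𝒵(puigOf S)))) : NPC(p, H ⊓ 𝒩(𝒵(puigOf R))) := by
  obtain ⟨x, hx, rfl⟩ := sylow_trans hp sylS sylR
  have := h.conjg x
  rwa [pcore_conjg, conjg_inf, conjg_of_mem hx, conjg_norm, conjg_inf, conjg_cent, ← Puig_conjg] at this

/-- **Glauberman-Thompson**, for the Puig subgroup and `p ≥ 5` -/
theorem puig_npc (hp : p.Prime) (h5 : 5 ≤ p) {H S : Subgroup G} (sylS : IsSylowOf p S H)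
    (h : NPC(p, H ⊓ 𝒩(𝒵(puigOf S)))) : NPC(p, H) := by
  induction hn : Nat.card H using Nat.strong_induction_on generalizing G with
  | _ n ih =>
  subst hn
  have sZ : ∀ R : Subgroup G, 𝒵(puigOf R) ≤ R := fun R => inf_le_left.trans (Puig_sub R)
  by_cases hO : pPrimeCoreOf p H = ⊥
  swap
  · have nsO := pcore_normal {p}ᶜ H
    have nOS := sylS.le.trans nsO.2
    have inj := coset_comp_injective nOS (inf_comm S _ ▸ sylS.piGrp.inf_eq_bot (pcore_piGrp {p}ᶜ H))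
    have e : 𝒵(puigOf (S /ₛ piCoreOf {p}ᶜ H)) = (𝒵(puigOf S)) /ₛ piCoreOf {p}ᶜ H := by
      conv => lhs; rw [← map_subtype_top S, quot_map_subtype nOS, Puig_map_of_inj _ inj,
        ← map_inf_cent_of_inj _ _ inj, ← quot_map_subtype nOS,
        map_inf_cent_of_inj _ _ S.subtype_injective, ← Puig_map_of_inj _ S.subtype_injective,
        map_subtype_top]
    refine npc_of_quot nsO (pcore_piGrp _ H) (ih _ (card_quot_lt_of_normal nsO hO) (sylS.quot nsO.2) ?_ rfl)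
    have pZ := sylS.piGrp.of_le (sZ S)
    rw [e, coprime_subnorm_quotient_pgroup pZ ((sZ S).trans nOS)
      (pZ.coprime (pcore_piGrp _ H)).symm nsO.1]
    exact npc_quot h (inf_le_left.trans nsO.2)
  by_contra hc
  have hO' : pCoreOf p H ≠ ⊥ := by
    obtain ⟨U, hU, pU, U0, hN⟩ : ∃ U, U ≤ H ∧ IsPGrp p U ∧ U ≠ ⊥ ∧ ¬ NPC(p, H ⊓ 𝒩(U)) := by
      by_contra! hh
      refine hc (Frobenius_normal_complement hp fun U hU pU U0 q hq hqp x hx nx px => ?_)
      exact npc_cent (hh U hU pU U0) (le_inf hU le_normalizer) pU (zpowers_le.2 ⟨hx, nx⟩)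
        (IsPGrp.piGrp (piGrp_zpowers_iff.2 px) hqp) (zpowers_le.2 nx) (mem_zpowers x)
    obtain ⟨R₀, hR₀⟩ := sylow_exists hp (H ⊓ 𝒩(U))
    obtain ⟨R, ⟨U, hU, pU, U0, hN, hR⟩, max⟩ := exists_max_card_subgroup
      (P := fun R => ∃ U, U ≤ H ∧ IsPGrp p U ∧ U ≠ ⊥ ∧ ¬ NPC(p, H ⊓ 𝒩(U)) ∧ IsSylowOf p R (H ⊓ 𝒩(U)))
      ⟨U, hU, pU, U0, hN, hR₀⟩
    refine ne_bot_mono (pcore_max ⟨hU, by_contra fun nU => ?_⟩ pU) U0
    have lt : H ⊓ 𝒩(U) < H := inf_lt_left.2 nU
    have h1 : ¬ NPC(p, H ⊓ 𝒩(𝒵(puigOf R))) := fun f =>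
      hN (ih _ (card_lt_of_lt lt) hR (pcore_pHall_of_le f (inf_le_inf_right _ inf_le_left)) rfl)
    have sUR := hR.le_of_norm_le pU (le_inf hU le_normalizer) (hR.le.trans inf_le_right)
    have sRH := hR.le.trans inf_le_left
    obtain ⟨R', hR', sR⟩ := sylow_superset hp hR.piGrp
      (le_inf sRH ((center_Puig_char R).normalIn.2))
    have e := eq_of_le_of_card_ge sR (max R' ⟨_, (sZ R).trans sRH, hR.piGrp.of_le (sZ R),
      fun f => U0 (le_bot_iff.1 (trivg_center_Puig_pgroup hR.piGrp f ▸ sUR)), h1, hR'⟩)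
    rw [← e] at hR'
    exact h1 (npc_hyp_conj hp sylS (hR'.of_norm_le hp inf_le_left
      (inf_le_inf_left _ (center_Puig_char R).norm_le)) h)
  have hA : ∀ L, S ≤ L → L < H → NPC(p, L) := fun L h1 h2 =>
    ih _ (card_lt_of_lt h2) (sylS.of_le h1 h2.le) (pcore_pHall_of_le h (inf_le_inf_right _ h2.le)) rfl
  set O := pCoreOf p H with defO
  have nO : O ⊲ H := pcore_normal _ H
  have pO : IsPGrp p O := pcore_pGrp p H
  have sylQ := sylS.quot nO.2
  have hpre : ∀ Y, Y ≤ H /ₛ O → quotPre O Y ≤ H := fun Y hY => quotPre_le_of_le_quot nO.1 hY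
  have spre : ∀ Y, S /ₛ O ≤ Y → S ≤ quotPre O Y := fun Y hY => (quot_le_iff (sylS.le.trans nO.2)).1 hY
  have hB : NPC(p, H /ₛ O) := by
    refine ih _ (card_quot_lt_of_normal nO hO') sylQ ?_ rfl
    rcases (hpre _ (inf_le_left (b := 𝒩(𝒵(puigOf (S /ₛ O)))))).lt_or_eq with lt | e
    · have := npc_quot (hA _ (spre _ (le_inf sylQ.le (center_Puig_char _).normalIn.2)) lt)
        (quotPre_le_norm _)
      rwa [quot_quotPre] at this
    · have e' := congrArg (· /ₛ O) e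
      simp only [quot_quotPre, inf_eq_left] at e'
      have sZ' : 𝒵(puigOf (S /ₛ O)) ≤ S /ₛ O := inf_le_left.trans (Puig_sub _)
      have h1 := eq_bot_of_pcore_eq_bot (pcore_quot_pcore {p} H) ⟨sZ'.trans sylQ.le, e'⟩
        (sylQ.piGrp.of_le sZ')
      exact npc_of_piGrp ((sylQ.eq_bot_iff.1 (trivg_center_Puig_pgroup sylQ.piGrp h1)).inf_left _)
  have nK := quotPre_normalIn_of nO (pcore_normal {p}ᶜ (H /ₛ O))
  set K := quotPre O (piCoreOf {p}ᶜ (H /ₛ O)) with defK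
  have pX : IsPGrp p (K ⊓ 𝒞(O)) := by
    have nX : K ⊓ 𝒞(O) ⊲ H := ⟨inf_le_left.trans nK.1, norm_inf nK.2 (norm_cent nO.2)⟩
    have s1 : IsSylowOf p O K := pHall_mk (le_quotPre _) pO (by
      rw [defK, relIndex_quotPre_self]; exact pcore_piGrp _ _)
    have s2 := s1.inf_of_normal (quotPre_le_norm _) (inf_le_left (b := 𝒞(O)))
    have d := Burnside_normal_complement hp s2
      ((inf_le_left.trans inf_le_right).trans (cent_anti inf_le_left))
    have e : pPrimeCoreOf p (K ⊓ 𝒞(O)) = ⊥ := le_bot_iff.1 (hO ▸ nX.pcore_le _)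
    rw [← d.sup_eq, e, bot_sup_eq]
    exact s2.piGrp
  refine hc (npc_of_pGrp fun q hq hd => by_contra fun hqp => ?_)
  obtain ⟨Q, sQ, nQ⟩ := sol_coprime_Sylow_exists hq (Or.inr (IsPGrp.sol sylQ.piGrp))
    (sylQ.le.trans (pcore_norm {p}ᶜ _)) (sylQ.piGrp.coprime (pcore_piGrp _ _)).symm
  have sQ' := sQ.trans_hall hB hqp
  rcases (hpre (Q ⊔ (S /ₛ O)) (sup_le sQ'.le sylQ.le)).lt_or_eq with lt | e
  · obtain ⟨T, sT⟩ := sylow_exists hq (quotPre O (Q ⊔ (S /ₛ O)))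
    have sT' := sT.trans_index lt.le (by
      rw [relIndex_quotPre_left nO]
      exact piNat_relIndex_of_le_left le_sup_left sQ'.index)
    have pT : IsPiGrp {p}ᶜ T := sT.pGrp.piGrp hqp
    have h1 := npc_cent (hA _ (spre _ le_sup_right) lt) (le_quotPre _) pO sT.le pT (sT'.le.trans nO.2)
    have h2 : T ≤ K := le_of_piGrp_of_relIndex sT'.le nK.2 pT (by
      rw [defK, relIndex_quotPre_left nO]; exact hB.index)
    exact sT'.ne_bot hq rfl hd ((pX.of_le (le_inf h2 h1)).eq_bot pT)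
  · have solH : Group.IsSolvable H := e ▸ sol_quotPre (sol_sup sQ.pGrp.sol (IsPGrp.sol sylQ.piGrp) (Or.inr nQ)) pO.sol
    rw [inf_eq_left.2 (sol_Puig_center_normal hp h5 solH sylS hO).2] at h
    exact hc h

/-- **Thompson**: a group with a fixed point free automorphism of prime order is solvable. -/
theorem prime_regular_sol {K R : Subgroup G} (hn : R ≤ 𝒩(K)) (hR : (Nat.card R).Prime)
    (co : (Nat.card K).Coprime (Nat.card R)) (hC : K ⊓ 𝒞(R) = ⊥) : Group.IsSolvable K := by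
  induction hn' : Nat.card K using Nat.strong_induction_on generalizing G with
  | _ n ih =>
  subst hn'
  by_cases h0 : K = ⊥
  · exact sol_of_abelian (h0 ▸ inferInstance)
  have solR := sol_of_abelian (abelian_of_cyclic (isCyclic_of_card_prime hR))
  have sub : ∀ L, L < K → R ≤ 𝒩(L) → Group.IsSolvable L := fun L lt nL =>
    ih _ (card_lt_of_lt lt) nL hR (co.coprime_dvd_left (card_dvd_of_le lt.le))
      (le_bot_iff.1 (hC ▸ inf_le_inf_right _ lt.le)) rfl
  obtain ⟨V, sV, mV⟩ := minNormal_exists h0 (sup_le (le_normalizer (H := K)) hn)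
  have nVK := le_sup_left.trans mV.norm
  have nVR := le_sup_right.trans mV.norm
  rcases sV.lt_or_eq with lt | rfl
  · refine sol_of_quot nVK (ih _ (card_quot_lt_of_normal ⟨sV, nVK⟩ mV.ne_bot) (quot_norm V hn) ?_
      (coprime_quot V co) ?_ rfl) (sub V lt nVR)
    · rwa [card_quot_of_inf_eq_bot nVR (inf_eq_bot_of_cop (co.coprime_dvd_left (card_dvd_of_le sV)))]
    · rw [← coprime_quotient_cent sV nVR co (Or.inr solR), hC, quot_eq_bot_of_le bot_le]
  by_cases h23 : IsPiGrp {2, 3} V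
  · exact burnside_pq Nat.prime_two Nat.prime_three h23
  obtain ⟨p, hp, hd, hne⟩ : ∃ p, p.Prime ∧ p ∣ Nat.card V ∧ p ∉ ({2, 3} : Set ℕ) := by
    by_contra! hh
    exact h23 hh
  have h5 : 5 ≤ p := hp.five_le_of_ne_two_of_ne_three (fun e => hne (Or.inl e)) fun e => hne (Or.inr e)
  obtain ⟨P, sP, nP⟩ := sol_coprime_Sylow_exists hp (Or.inr solR) hn co
  have nZ := (center_Puig_char P).norm nP
  have sZ : 𝒵(puigOf P) ≤ V := (inf_le_left.trans (Puig_sub P)).trans sP.le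
  by_cases hZ : V ≤ 𝒩(𝒵(puigOf P))
  · rcases mV.eq_bot_or_eq sZ (sup_le hZ nZ) with e | e
    · exact absurd (trivg_center_Puig_pgroup sP.piGrp e) (sP.ne_bot' hp hd)
    · exact e ▸ sol_of_abelian (abelian_inf_cent _)
  have nN := norm_inf hn (norm_norm nZ)
  have h1 := puig_npc hp h5 sP (nilpotent_pcore_Hall _ (prime_regular_sol_nil nN
    (sub _ (inf_lt_left.2 hZ) nN) hR (le_bot_iff.1 (hC ▸ inf_le_inf_right _ inf_le_left))))
  rcases mV.eq_bot_or_eq (pcore_le {p}ᶜ V) (sup_le (pcore_norm _ V) (norm_pcore _ hn)) with e | e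
  · exact IsPGrp.sol (p := p) (by simpa only [compl_compl] using h1.eq_bot_iff.1 e)
  · exact absurd hd ((piGrp_compl_singleton_iff hp).1 (pcore_eq_self_iff.1 e))

/-- **Thompson**: Frobenius kernels are nilpotent. -/
theorem Frobenius_kernel_nil {M K R : Subgroup G} (h : IsFrob M K R)
    (co : (Nat.card K).Coprime (Nat.card R)) : Group.IsNilpotent K := by
  obtain ⟨p, hp, hd⟩ := exists_prime_dvd_card h.2.2.1
  obtain ⟨X, sX, cX⟩ := exists_le_card_eq_prime hp hd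
  obtain ⟨x, hx, x1⟩ := exists_mem_ne_one (ne_bot_of_card_prime (cX ▸ hp))
  exact Frobenius_sol_kernel_nil h (prime_regular_sol (sX.trans h.1.norm) (cX ▸ hp)
    (co.coprime_dvd_right (card_dvd_of_le sX))
    (le_bot_iff.1 (h.2.2.2 x (sX hx) x1 ▸ inf_le_inf_left _ (cent_le_cent_singleton hx))))

end CA.Chr
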